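import Cfsg.Agent.H985.FE.OBTwo
import Cfsg.Agent.H446.FE.ZFour

/-!
# S2452, `F₄(q)`, `q` even: `OC3e`, `OB3e` (helper985)
-/

set_option autoImplicit false
set_option linter.unusedSectionVars false

namespace Cfsg.Agent.H985.FE

open CoxeterSystem Cfsg.Agent.ChevalleyStructure.CoxeterGeom Cfsg.Agent.Tits.Roots Cfsg.Agent.Tits.Core
  Cfsg.Agent.Tits.Exchange Cfsg.Agent.Nodes.Reps Cfsg.Agent.Nodes.BNOf Cfsg.Agent.Nodes.StabComb
  Cfsg.Agent.Nodes.Bruhat Cfsg.Agent.Nodes.OppDec Cfsg.Agent.Nodes.LeviDec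
  Cfsg.Agent.Nodes.RGDChev Cfsg.Agent.KFacts.RgdPar Cfsg.Agent.KFacts.RgdChevCoord
  Cfsg.Agent.H225.PPow Cfsg.Agent.H701.F43.Cent
open Cfsg.Lie Cfsg.Agent.ChevalleyStructure Cfsg.Agent.ChevalleyStructure.CoxeterGeomTypes
open Cfsg.Agent.H797.FQ
open Cfsg.Agent.H520.FC (PK VK XT cls d2)
open Cfsg.Agent.H997.FE (Cen Z7 L1 L4 U2e Z1e Z4e OC3e OB3e)

universe u

variable {K : Type u} [Field K]

theorem e_mem_Z7 {L : List ℕ} {r : ℕ} (hr : r ∈ L) (h : r < 48) (t : K) : e r t ∈ Z7 K L :=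
  RGD.le_Sup (S := {x | ∃ r ∈ L, x = vec chevF4 4 r}) (z := vec chevF4 4 r) ⟨r, hr, rfl⟩
    ((mem_XX_vec hF (by rw [nroots]; exact h)).2 ⟨t, rfl⟩)

theorem E_mem_Z7 {L : List ℕ} : ∀ {M : List ℕ}, (∀ r ∈ M, r ∈ L ∧ r < 48) → ∀ c : ℕ → K, E M c ∈ Z7 K L := by
  intro M
  induction M with
  | nil => exact fun _ _ => one_mem _
  | cons s M ih =>
    intro hM c
    obtain ⟨h1, h2⟩ := hM s List.mem_cons_self
    rw [E_cons]
    exact mul_mem (e_mem_Z7 h1 h2 _) (ih (fun r hr => hM r (List.mem_cons_of_mem _ hr)) c)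

theorem pow7_le (q : ℕ) : (q - 1) * q ^ 6 ≤ q ^ 7 := by
  rw [pow_succ' q 6]
  exact Nat.mul_le_mul_right _ (Nat.sub_le _ _)

variable [CharP K 2] [Finite K]

theorem two0 : (2 : K) = 0 := by exact_mod_cast CharP.cast_eq_zero K 2

theorem u2e : U2e K := by
  intro u hu hn
  have h1 := oc3_two (two0 (K := K)) hu (by
    rintro c b rfl
    exact hn (mul_mem (E_mem_Z7 (by decide) c) (e_mem_Z7 (by decide) (by norm_num) b)))
  exact (pow7_le _).trans h1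

theorem oc3e : OC3e K := fun u hu hn => u2e u hu fun h => hn (Cfsg.Agent.H446.FE.z1e u h)

theorem ob3e : OB3e K := by
  intro u hu hn
  have h1 := ob3_two (two0 (K := K)) hu (by
    rintro c b rfl
    exact hn (Cfsg.Agent.H446.FE.z4e _ (mul_mem (E_mem_Z7 (by decide) c) (e_mem_Z7 (by decide) (by norm_num) b))))
  exact (pow7_le _).trans h1

end Cfsg.Agent.H985.FE
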