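import Cfsg.Agent.H985.FE.OCTwo
import Cfsg.Agent.H296.FFourGam

/-!
# Orbits of the parabolic subgroup of type `B₃` of `F₄(q)`, `q` even, on its unipotent radical (S2452, box U3; helper985)

The graph automorphism maps the parabolic subgroup of type `B₃` to the one of type `C₃`, short root groups to long
root groups.

* `ob3_two` : `u ∈ V = VJ {1, 2, 3}`, `u` not in the product of the `X_r`, `r` long, and `X_σ`, `σ` the highest short
  root: the class of `u` under `P_J` has at least `q ^ 7` elements.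
-/

set_option autoImplicit false
set_option linter.unusedSectionVars false

namespace Cfsg.Agent.H985.FE

open CoxeterSystem Cfsg.Agent.ChevalleyStructure.CoxeterGeom Cfsg.Agent.Tits.Roots Cfsg.Agent.Tits.Core
  Cfsg.Agent.Tits.Exchange Cfsg.Agent.Nodes.Reps Cfsg.Agent.Nodes.BNOf Cfsg.Agent.Nodes.StabComb
  Cfsg.Agent.Nodes.Bruhat Cfsg.Agent.Nodes.OppDec Cfsg.Agent.Nodes.LeviDec
  Cfsg.Agent.Nodes.RGDChev Cfsg.Agent.KFacts.RgdPar Cfsg.Agent.KFacts.RgdChevCoord
  Cfsg.Agent.H225.PPow Cfsg.Agent.H701.F43.Cent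
open Cfsg.Lie Cfsg.Agent.ChevalleyStructure Cfsg.Agent.ChevalleyStructure.CoxeterGeomTypes
open Cfsg.Agent.H797.FQ
open Cfsg.Agent.H296.FFour (al al_xS br la hp4 perf)

universe u

variable {K : Type u} [Field K]

theorem E_mem_H {H : Subgroup ↥(chevF4.group K)} (hM : ∀ r ∈ idxM, ∀ t : K, e r t ∈ H) {L : List ℕ}
    (hL : ∀ s ∈ L, s ∈ idxM) (c : ℕ → K) : E L c ∈ H := by
  induction L with
  | nil => exact one_mem _
  | cons s L ih =>
    rw [E_cons]
    exact mul_mem (hM _ (hL s List.mem_cons_self) _) (ih fun s hs => hL s (List.mem_cons_of_mem _ hs))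

/-- **a long coordinate can be moved to the lowest root** -/
theorem exists_24_H (h2 : (2 : K) = 0) {H : Subgroup ↥(chevF4.group K)}
    (hM : ∀ r ∈ idxM, ∀ t : K, e r t ∈ H) {u : ↥(chevF4.group K)} {c : ℕ → K} (hu : R u c) (hne : ∃ s ∈ LL, c s ≠ 0) :
    ∃ g ∈ H, ∃ c, R (g * u * g⁻¹) c ∧ c 24 ≠ 0 := by
  by_contra hcon
  push Not at hcon
  let Z : ℕ → Prop := fun m => ∀ g ∈ H, ∀ c, R (g * u * g⁻¹) c → c m = 0
  have z24 : Z 24 := hcon
  have stp : ∀ {γ m : ℕ}, γ ∈ idxM → m ∈ L14 → Z m → ∀ g ∈ H, ∀ c, R (g * u * g⁻¹) c → ∀ t : K,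
      ((ctr γ m).map fun q => (q.2.1 : K) * t ^ q.2.2.1 * (c q.1) ^ q.2.2.2).sum = 0 := by
    intro γ m hγ hm hZ g hg c hc t
    have h1 := hc.conj hγ t
    have h3 : e γ t * (g * u * g⁻¹) * (e γ t)⁻¹ = (e γ t * g) * u * (e γ t * g)⁻¹ := by group
    rw [h3] at h1
    have h4 := hZ _ (mul_mem (hM _ hγ t) hg) _ h1
    rw [MM'_apply γ t c hm, hZ g hg c hc, zero_add] at h4
    exact h4
  have one : ∀ {γ m r : ℕ} {N : ℤ}, γ ∈ idxM → m ∈ L14 → ctr γ m = [(r, N, 1, 1)] → (N = 1 ∨ N = -1) → Z m → Z r := by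
    intro γ m r N hγ hm ht hN hZ g hg c hc
    have h1 := stp hγ hm hZ g hg c hc 1
    rw [ht, List.map_cons, List.map_nil, List.sum_cons, List.sum_nil, add_zero] at h1
    rcases hN with rfl | rfl
    · simpa using h1
    · simpa using h1
  have two : ∀ {γ m r r' : ℕ} {N N' : ℤ}, γ ∈ idxM → m ∈ L14 → ctr γ m = [(r, N, 1, 1), (r', N', 2, 1)] →
      (N = 2 ∨ N = -2) → (N' = 1 ∨ N' = -1) → Z m → Z r' := by
    intro γ m r r' N N' hγ hm ht hN hN' hZ g hg c hc
    have h1 := stp hγ hm hZ g hg c hc 1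
    rw [ht, List.map_cons, List.map_cons, List.map_nil, List.sum_cons, List.sum_cons, List.sum_nil, add_zero] at h1
    have h3 : (N : K) = 0 := by
      rcases hN with rfl | rfl
      · push_cast
        exact h2
      · push_cast
        rw [h2, neg_zero]
    rw [h3, zero_mul, zero_mul, zero_add, one_pow, mul_one, pow_one] at h1
    rcases hN' with rfl | rfl
    · simpa using h1
    · simpa using h1
  have z26 := one (by decide) (by decide) c1 (by decide) z24
  have z31 := two (by decide) (by decide) c2 (by decide) (by decide) z26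
  have z32 := one (by decide) (by decide) c3 (by decide) z31
  have z42 := two (by decide) (by decide) c4 (by decide) (by decide) z31
  have z43 := one (by decide) (by decide) c5 (by decide) z42
  have z45 := two (by decide) (by decide) c6 (by decide) (by decide) z43
  have z46 := one (by decide) (by decide) c7 (by decide) z45
  have hu' : R (1 * u * 1⁻¹) c := by rwa [one_mul, inv_one, mul_one]
  obtain ⟨s, hs, hcs⟩ := hne
  apply hcs
  simp only [LL, List.mem_cons, List.not_mem_nil, or_false] at hs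
  rcases hs with rfl | rfl | rfl | rfl | rfl | rfl | rfl | rfl
  · exact z24 1 (one_mem _) c hu'
  · exact z26 1 (one_mem _) c hu'
  · exact z31 1 (one_mem _) c hu'
  · exact z32 1 (one_mem _) c hu'
  · exact z42 1 (one_mem _) c hu'
  · exact z43 1 (one_mem _) c hu'
  · exact z45 1 (one_mem _) c hu'
  · exact z46 1 (one_mem _) c hu'

/-- the orbit -/
theorem card_le_H [Finite K] {H : Subgroup ↥(chevF4.group K)} (hM : ∀ r ∈ idxM, ∀ t : K, e r t ∈ H)
    (h46 : ∀ t : K, e 46 t ∈ H) {u : ↥(chevF4.group K)} {c : ℕ → K} (hu : R u c) (h24 : c 24 ≠ 0) :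
    Nat.card K ^ 7 ≤ Nat.card {x : ↥(chevF4.group K) // ∃ g ∈ H, g * u * g⁻¹ = x} := by
  classical
  let Ψ : (↥A6.toFinset → K) × K → {x : ↥(chevF4.group K) // ∃ g ∈ H, g * u * g⁻¹ = x} := fun x =>
    ⟨(e 46 x.2 * E A6 (xa x.1)) * u * (e 46 x.2 * E A6 (xa x.1))⁻¹, _,
      mul_mem (h46 _) (E_mem_H hM A6_M _), rfl⟩
  have hcard : Nat.card ((↥A6.toFinset → K) × K) = Nat.card K ^ 7 := by
    have h6 : Nat.card ↥A6.toFinset = 6 := by
      rw [Nat.card_eq_fintype_card, Fintype.card_coe]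
      rfl
    rw [Nat.card_prod, Nat.card_fun, h6, ← pow_succ]
  rw [← hcard]
  have : Finite ↥(chevF4.group K) := inferInstance
  refine Nat.card_le_card_of_injective Ψ ?_
  rintro ⟨f, y⟩ ⟨f', y'⟩ h
  have h1 : (e 46 y * E A6 (xa f)) * u * (e 46 y * E A6 (xa f))⁻¹ =
      (e 46 y' * E A6 (xa f')) * u * (e 46 y' * E A6 (xa f'))⁻¹ := congrArg Subtype.val h
  obtain ⟨d, ⟨b, hd⟩, hd1, hd2⟩ := orb hu (xa f) (L := A6) (by decide) fun _ h => h
  obtain ⟨d', ⟨b', hd'⟩, hd1', hd2'⟩ := orb hu (xa f') (L := A6) (by decide) fun _ h => h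
  have h2 : (e 46 y * E A6 (xa f)) * u * (e 46 y * E A6 (xa f))⁻¹ = E L14 d * e 47 (b - y * d 24) := by
    rw [← conj46, ← hd]; group
  have h2' : (e 46 y' * E A6 (xa f')) * u * (e 46 y' * E A6 (xa f'))⁻¹ = E L14 d' * e 47 (b' - y' * d' 24) := by
    rw [← conj46, ← hd']; group
  rw [h2, h2'] at h1
  obtain ⟨h3, h4⟩ := unique h1
  have h5 : xa f = xa f' := by
    funext n
    by_cases hn : n ∈ A6
    · have h6 := h3 (n + 1) (A6_L n hn)
      rw [hd2 n hn, hd2' n hn, if_pos hn, if_pos hn] at h6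
      exact mul_right_cancel₀ h24 (sub_right_injective h6)
    · unfold xa
      rw [dif_neg (by rwa [List.mem_toFinset]), dif_neg (by rwa [List.mem_toFinset])]
  have h7 : f = f' := by
    funext ⟨s, hs⟩
    have h8 := congrFun h5 s
    unfold xa at h8
    rwa [dif_pos hs, dif_pos hs] at h8
  subst h7
  have h9 : E L14 d * e 47 b = E L14 d' * e 47 b' := by rw [← hd, ← hd']
  obtain ⟨-, h10⟩ := unique h9
  rw [hd1, hd1', h10] at h4
  have h11 : y = y' := mul_right_cancel₀ h24 (sub_right_injective h4)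
  rw [h11]

/-! ### the parabolic subgroup of type `B₃` -/

/-- the nodes of `B₃` -/
abbrev J0 : Set (Fin 4) := {k | k ≠ 0}

theorem mem_NotJ0 {x : Fin 4 → ℤ} : x ∈ NotJ cF hF.isCartan J0 ↔ IsRoot cF hF.isCartan x ∧ 0 < x 0 := by
  constructor
  · rintro ⟨h1, -, k, hk, h2⟩
    have h3 : k = 0 := by
      by_contra h
      exact hk h
    exact ⟨h1, h3 ▸ h2⟩
  · rintro ⟨h1, h2⟩
    exact ⟨h1, nonneg_of_pos_apply h1 h2, 0, fun h => h rfl, h2⟩

theorem mem_RootsJ0 {x : Fin 4 → ℤ} : x ∈ RootsJ cF hF.isCartan J0 ↔ IsRoot cF hF.isCartan x ∧ x 0 = 0 := by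
  constructor
  · rintro ⟨h1, h2⟩
    exact ⟨h1, h2 0 fun h => h rfl⟩
  · rintro ⟨h1, h2⟩
    refine ⟨h1, fun k hk => ?_⟩
    have h3 : k = 0 := by
      by_contra h
      exact hk h
    rw [h3, h2]

theorem e_mem_P0 {r : ℕ} (hr : r < chevF4.nroots) (h0 : 0 ≤ vec chevF4 4 r 0) (t : K) :
    e r t ∈ PJ cF hF.isCartan (TT chevF4 K) (XX chevF4 4 K) J0 := by
  have h1 : e r t ∈ XX chevF4 4 K (vec chevF4 4 r) := (mem_XX_vec hF hr).2 ⟨t, rfl⟩
  have h2 : IsRoot cF hF.isCartan (vec chevF4 4 r) := (isRoot_iff hF cF _).2 ⟨r, hr, rfl⟩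
  rcases h0.eq_or_lt with h | h
  · exact LJ_le_PJ (X_le_LJ (mem_RootsJ0.2 ⟨h2, h.symm⟩) h1)
  · exact VJ_le_PJ (RGD.le_Sup (mem_NotJ0.2 ⟨h2, h⟩) h1)

theorem tabBr : ∀ r ∈ 46 :: idxM, br r < 48 ∧ br (br r) = r ∧ 0 ≤ vec chevF4 4 (br r) 0 := by decide +kernel

theorem tabBr' : ∀ r < 48, 0 < vec chevF4 4 r 0 → br r ∈ idxV := by decide +kernel

theorem tabLa : ∀ r < 48, la r = 1 ∨ la r = 2 := by decide +kernel

section

variable [CharP K 2] [PerfectRing K 2]

theorem al_e {r : ℕ} (hr : r < 48) (t : K) : al K (e r t) = e (br r) (t ^ la r) := al_xS hr t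

theorem exists_al_e {r : ℕ} (hr : br r < 48) (h : br (br r) = r) (t : K) : ∃ s : K, al K (e (br r) s) = e r t := by
  rcases tabLa (br r) hr with h1 | h1
  · exact ⟨t, by rw [al_e hr, h, h1, pow_one]⟩
  · obtain ⟨s, hs⟩ := perf t
    exact ⟨s, by rw [al_e hr, h, h1, hs]⟩

theorem mem_map_P0 {r : ℕ} (hr : r ∈ 46 :: idxM) (t : K) :
    e r t ∈ (PJ cF hF.isCartan (TT chevF4 K) (XX chevF4 4 K) J0).map (al K).toMonoidHom := by
  obtain ⟨h1, h2, h3⟩ := tabBr r hr
  obtain ⟨s, hs⟩ := exists_al_e h1 h2 t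
  exact ⟨e (br r) s, e_mem_P0 (by rw [nroots]; exact h1) h3 s, hs⟩

theorem al_mem_VV {u : ↥(chevF4.group K)} (hu : u ∈ VJ cF hF.isCartan (XX chevF4 4 K) J0) : al K u ∈ VV K := by
  have h1 : VJ cF hF.isCartan (XX chevF4 4 K) J0 ≤ (VV K).comap (al K).toMonoidHom := by
    refine RGD.Sup_le fun z hz => ?_
    obtain ⟨h1, h2⟩ := mem_NotJ0.1 hz
    obtain ⟨r, hr, rfl⟩ := (isRoot_iff hF cF z).1 h1
    intro x hx
    obtain ⟨t, rfl⟩ := (mem_XX_vec hF hr).1 hx
    have hr' : r < 48 := by rwa [nroots] at hr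
    show al K (e r t) ∈ VV K
    rw [al_e hr']
    exact e_mem_VV (tabBr' r hr' h2) _
  exact h1 hu

end

/-- the long roots of the centre of `VJ {1, 2, 3}` -/
def ZL : List ℕ := [41, 42, 43, 45, 46, 47]

theorem tabZ : ZL.map br = SL := by decide +kernel

theorem lt_ZL : ∀ r ∈ ZL, r < 48 := by decide

theorem br44 : br 44 = 47 := by decide +kernel

section

variable [CharP K 2] [PerfectRing K 2]

theorem exists_root (c : ℕ → K) : ∃ d : ℕ → K, ∀ r < 48, al K (e r (d r)) = e (br r) (c (br r)) := by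
  have h : ∀ r : ℕ, ∃ x : K, r < 48 → al K (e r x) = e (br r) (c (br r)) := by
    intro r
    by_cases hr : r < 48
    · rcases tabLa r hr with h1 | h1
      · exact ⟨c (br r), fun _ => by rw [al_e hr, h1, pow_one]⟩
      · obtain ⟨x, hx⟩ := perf (c (br r))
        exact ⟨x, fun _ => by rw [al_e hr, h1, hx]⟩
    · exact ⟨0, fun h => absurd h hr⟩
  choose d hd using h
  exact ⟨d, hd⟩

theorem al_E {c d : ℕ → K} {L : List ℕ} (h : ∀ r ∈ L, al K (e r (d r)) = e (br r) (c (br r))) :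
    al K (E L d) = E (L.map br) c := by
  induction L with
  | nil => exact map_one _
  | cons s L ih =>
    rw [List.map_cons, E_cons, E_cons, map_mul, h s List.mem_cons_self, ih fun s hs => h s (List.mem_cons_of_mem _ hs)]

end

/-- **box U3** -/
theorem ob3_two [Finite K] (h2 : (2 : K) = 0) {u : ↥(chevF4.group K)}
    (hu : u ∈ VJ cF hF.isCartan (XX chevF4 4 K) {k | k ≠ 0}) (hu' : ∀ (c : ℕ → K) (b : K), u ≠ E ZL c * e 44 b) :
    Nat.card K ^ 7 ≤ Nat.card {x : ↥(chevF4.group K) //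
      ∃ g ∈ PJ cF hF.isCartan (TT chevF4 K) (XX chevF4 4 K) {k | k ≠ 0}, g * u * g⁻¹ = x} := by
  have hch : CharP K 2 := CharTwo.of_one_ne_zero_of_two_eq_zero one_ne_zero h2
  have hpe : PerfectRing K 2 := inferInstance
  obtain ⟨c, hc⟩ := exists_R (al_mem_VV hu)
  have hne : ∃ s ∈ LL, c s ≠ 0 := by
    by_contra hcon
    push Not at hcon
    obtain ⟨b, hb⟩ := eq_of_long_zero hc hcon
    obtain ⟨d, hd⟩ := exists_root (K := K) c
    obtain ⟨d', hd'⟩ := exists_root (K := K) fun _ => b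
    apply hu' d (d' 44)
    apply (al K).injective
    rw [hb, map_mul, al_E fun r hr => hd r (lt_ZL r hr), tabZ, hd' 44 (by norm_num), br44]
  have hM : ∀ r ∈ idxM, ∀ t : K, e r t ∈
      (PJ cF hF.isCartan (TT chevF4 K) (XX chevF4 4 K) J0).map (al K).toMonoidHom :=
    fun r hr t => mem_map_P0 (List.mem_cons_of_mem _ hr) t
  obtain ⟨g, hg, d, hd, h24⟩ := exists_24_H h2 hM hc hne
  have h1 := card_le_H hM (fun t => mem_map_P0 List.mem_cons_self t) hd h24
  refine h1.trans ?_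
  have : Finite ↥(chevF4.group K) := inferInstance
  refine Nat.card_le_card_of_injective (fun x : {x : ↥(chevF4.group K) //
      ∃ k ∈ (PJ cF hF.isCartan (TT chevF4 K) (XX chevF4 4 K) J0).map (al K).toMonoidHom,
        k * (g * al K u * g⁻¹) * k⁻¹ = x} =>
    (⟨(al K).symm x.1, by
      obtain ⟨k, ⟨k', hk', rfl⟩, hx⟩ := x.2
      obtain ⟨g', hg', rfl⟩ := hg
      refine ⟨k' * g', mul_mem hk' hg', ?_⟩
      rw [← hx]
      show k' * g' * u * (k' * g')⁻¹ = (al K).symm (al K k' * (al K g' * al K u * (al K g')⁻¹) * (al K k')⁻¹)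
      rw [← map_inv, ← map_inv, ← map_mul, ← map_mul, ← map_mul, ← map_mul, MulEquiv.symm_apply_apply]
      group⟩ : {x : ↥(chevF4.group K) //
        ∃ g ∈ PJ cF hF.isCartan (TT chevF4 K) (XX chevF4 4 K) {k | k ≠ 0}, g * u * g⁻¹ = x})) fun x y hxy => ?_
  exact Subtype.ext ((al K).symm.injective (congrArg Subtype.val hxy))

end Cfsg.Agent.H985.FE
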