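import Cfsg.Agent.H797.FQ.OC3

/-!
# Orbits of the parabolic subgroup of type `C₃` of `F₄(q)`, `q` even, on its unipotent radical (S2452, box U2; helper985)

`V = VJ {0, 1, 2}`; level one: the long roots `LL` and the short roots `SL`.

* `oc3_two` : `u ∈ V` with a long coordinate: the class of `u` under `P_J` has at least `q ^ 7` elements.
-/

set_option autoImplicit false
set_option linter.unusedSectionVars false

namespace Cfsg.Agent.H985.FE

open CoxeterSystem Cfsg.Agent.ChevalleyStructure.CoxeterGeom Cfsg.Agent.Tits.Roots Cfsg.Agent.Tits.Core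
  Cfsg.Agent.Tits.Exchange Cfsg.Agent.Nodes.Reps Cfsg.Agent.Nodes.BNOf Cfsg.Agent.Nodes.StabComb
  Cfsg.Agent.Nodes.Bruhat Cfsg.Agent.Nodes.OppDec Cfsg.Agent.Nodes.LeviDec
  Cfsg.Agent.Nodes.RGDChev Cfsg.Agent.KFacts.RgdPar Cfsg.Agent.KFacts.RgdChevCoord
  Cfsg.Agent.H225.PPow Cfsg.Agent.H701.F43.Cent
open Cfsg.Lie Cfsg.Agent.ChevalleyStructure Cfsg.Agent.ChevalleyStructure.CoxeterGeomTypes
open Cfsg.Agent.H797.FQ

universe u

variable {K : Type u} [Field K]

/-- the long roots of level one -/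
def LL : List ℕ := [24, 26, 31, 32, 42, 43, 45, 46]

/-- the short roots of level one -/
def SL : List ℕ := [29, 36, 38, 39, 40, 44]

theorem SL_sub : ∀ s ∈ SL, s ∈ L14 := by decide

theorem LL_sub : ∀ s ∈ LL, s ∈ L14 := by decide

theorem cases14 : ∀ s ∈ L14, s ∈ LL ∨ s ∈ SL := by decide

theorem c1 : ctr 22 24 = [(26, -1, 1, 1)] := by decide +kernel
theorem c2 : ctr 20 26 = [(29, -2, 1, 1), (31, -1, 2, 1)] := by decide +kernel
theorem c3 : ctr 22 31 = [(32, 1, 1, 1)] := by decide +kernel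
theorem c4 : ctr 14 31 = [(38, -2, 1, 1), (42, -1, 2, 1)] := by decide +kernel
theorem c5 : ctr 22 42 = [(43, 1, 1, 1)] := by decide +kernel
theorem c6 : ctr 20 43 = [(44, 2, 1, 1), (45, 1, 2, 1)] := by decide +kernel
theorem c7 : ctr 22 45 = [(46, 1, 1, 1)] := by decide +kernel

/-- **a long coordinate can be moved to the lowest root** -/
theorem exists_24_two (h2 : (2 : K) = 0) {u : ↥(chevF4.group K)} {c : ℕ → K} (hu : R u c) (hne : ∃ s ∈ LL, c s ≠ 0) :
    ∃ g ∈ PP K, ∃ c, R (g * u * g⁻¹) c ∧ c 24 ≠ 0 := by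
  by_contra hcon
  push Not at hcon
  let Z : ℕ → Prop := fun m => ∀ g ∈ PP K, ∀ c, R (g * u * g⁻¹) c → c m = 0
  have z24 : Z 24 := hcon
  have stp : ∀ {γ m : ℕ}, γ ∈ idxM → m ∈ L14 → Z m → ∀ g ∈ PP K, ∀ c, R (g * u * g⁻¹) c → ∀ t : K,
      ((ctr γ m).map fun q => (q.2.1 : K) * t ^ q.2.2.1 * (c q.1) ^ q.2.2.2).sum = 0 := by
    intro γ m hγ hm hZ g hg c hc t
    have h1 := hc.conj hγ t
    have h3 : e γ t * (g * u * g⁻¹) * (e γ t)⁻¹ = (e γ t * g) * u * (e γ t * g)⁻¹ := by group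
    rw [h3] at h1
    have h4 := hZ _ (mul_mem (e_mem_PP hγ t) hg) _ h1
    rw [MM'_apply γ t c hm, hZ g hg c hc, zero_add] at h4
    exact h4
  have one : ∀ {γ m r : ℕ} {N : ℤ}, γ ∈ idxM → m ∈ L14 → ctr γ m = [(r, N, 1, 1)] → (N = 1 ∨ N = -1) → Z m → Z r := by
    intro γ m r N hγ hm ht hN hZ g hg c hc
    have h1 := stp hγ hm hZ g hg c hc 1
    rw [ht, List.map_cons, List.map_nil, List.sum_cons, List.sum_nil, add_zero] at h1
    rcases hN with rfl | rfl
    · simpa using h1
    · simpa using h1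
  have two : ∀ {γ m r r' : ℕ} {N N' : ℤ}, γ ∈ idxM → m ∈ L14 → ctr γ m = [(r, N, 1, 1), (r', N', 2, 1)] →
      (N = 2 ∨ N = -2) → (N' = 1 ∨ N' = -1) → Z m → Z r' := by
    intro γ m r r' N N' hγ hm ht hN hN' hZ g hg c hc
    have h1 := stp hγ hm hZ g hg c hc 1
    rw [ht, List.map_cons, List.map_cons, List.map_nil, List.sum_cons, List.sum_cons, List.sum_nil, add_zero] at h1
    have h3 : (N : K) = 0 := by
      rcases hN with rfl | rfl
      · push_cast
        exact h2
      · push_cast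
        rw [h2, neg_zero]
    rw [h3, zero_mul, zero_mul, zero_add, one_pow, mul_one, pow_one] at h1
    rcases hN' with rfl | rfl
    · simpa using h1
    · simpa using h1
  have z26 := one (by decide) (by decide) c1 (by decide) z24
  have z31 := two (by decide) (by decide) c2 (by decide) (by decide) z26
  have z32 := one (by decide) (by decide) c3 (by decide) z31
  have z42 := two (by decide) (by decide) c4 (by decide) (by decide) z31
  have z43 := one (by decide) (by decide) c5 (by decide) z42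
  have z45 := two (by decide) (by decide) c6 (by decide) (by decide) z43
  have z46 := one (by decide) (by decide) c7 (by decide) z45
  have hu' : R (1 * u * 1⁻¹) c := by rwa [one_mul, inv_one, mul_one]
  obtain ⟨s, hs, hcs⟩ := hne
  apply hcs
  simp only [LL, List.mem_cons, List.not_mem_nil, or_false] at hs
  rcases hs with rfl | rfl | rfl | rfl | rfl | rfl | rfl | rfl
  · exact z24 1 (one_mem _) c hu'
  · exact z26 1 (one_mem _) c hu'
  · exact z31 1 (one_mem _) c hu'
  · exact z32 1 (one_mem _) c hu'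
  · exact z42 1 (one_mem _) c hu'
  · exact z43 1 (one_mem _) c hu'
  · exact z45 1 (one_mem _) c hu'
  · exact z46 1 (one_mem _) c hu'

/-- no long coordinate: an element of the product of the short root groups and `X_θ` -/
theorem eq_of_long_zero {u : ↥(chevF4.group K)} {c : ℕ → K} (hu : R u c) (h : ∀ s ∈ LL, c s = 0) :
    ∃ b : K, u = E SL c * e 47 b := by
  obtain ⟨b, rfl⟩ := hu
  refine ⟨b, ?_⟩
  congr 1
  have h0 : ∀ s ∈ LL, e s (c s) = 1 := fun s hs => by rw [h s hs]; exact ex_zero hF s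
  simp only [L14, SL, E_cons, E_nil]
  rw [h0 24 (by decide), h0 26 (by decide), h0 31 (by decide), h0 32 (by decide), h0 42 (by decide), h0 43 (by decide),
    h0 45 (by decide), h0 46 (by decide)]
  simp only [one_mul, mul_one]

/-- **box U2** -/
theorem oc3_two [Finite K] (h2 : (2 : K) = 0) {u : ↥(chevF4.group K)}
    (hu : u ∈ VJ cF hF.isCartan (XX chevF4 4 K) {k | k ≠ 3}) (hu' : ∀ (c : ℕ → K) (b : K), u ≠ E SL c * e 47 b) :
    Nat.card K ^ 7 ≤ Nat.card {x : ↥(chevF4.group K) //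
      ∃ g ∈ PJ cF hF.isCartan (TT chevF4 K) (XX chevF4 4 K) {k | k ≠ 3}, g * u * g⁻¹ = x} := by
  obtain ⟨c, hc⟩ := exists_R (show u ∈ VV K from hu)
  obtain ⟨g, hg, d, hd, h24⟩ := exists_24_two h2 hc (by
    by_contra hcon
    push Not at hcon
    obtain ⟨b, hb⟩ := eq_of_long_zero hc hcon
    exact hu' c b hb)
  have h1 := card_le_of_24 hd h24
  refine h1.trans ?_
  have : Finite ↥(chevF4.group K) := inferInstance
  refine Nat.card_le_card_of_injective (fun x : Cls K (g * u * g⁻¹) =>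
    (⟨x.1, by
      obtain ⟨k, hk, hx⟩ := x.2
      exact ⟨k * g, mul_mem hk hg, by rw [← hx]; group⟩⟩ : Cls K u)) fun x y hxy => ?_
  exact Subtype.ext (congrArg (fun z : Cls K u => z.1) hxy)

end Cfsg.Agent.H985.FE
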